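import Mathlib
import Cfsg.Agent.Lib.Orth.Closure
import Cfsg.Agent.Lib.Orth.Block

/-!
# Orthogonal direct sums
-/

set_option autoImplicit false
set_option linter.unusedSectionVars false
set_option linter.unusedSimpArgs false

namespace Cfsg.Agent.Lib.Orth.Sum

open Matrix Cfsg Cfsg.Agent.Lib.Witt.Quadratic Cfsg.Agent.Lib.Orth.Refl Cfsg.Agent.Lib.Orth.Wall
  Cfsg.Agent.Lib.Orth.Gen Cfsg.Agent.Lib.Orth.Spin Cfsg.Agent.Lib.Orth.Omega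
  Cfsg.Agent.Lib.Orth.Bridge Cfsg.Agent.Lib.Orth.Forms Cfsg.Agent.Lib.Orth.Words
  Cfsg.Agent.Lib.Orth.Closure Cfsg.Agent.Lib.Orth.Block QuadraticMap

variable {F : Type*} [Field F] {ι κ : Type} [Fintype ι] [DecidableEq ι] [Fintype κ] [DecidableEq κ]
  (Q₁ : QuadraticForm F (ι → F)) (Q₂ : QuadraticForm F (κ → F))

theorem polar_sum_fun (u v : ι ⊕ κ → F) :
    polar (sumForm ⇑Q₁ ⇑Q₂) u v = polar Q₁ (u ∘ Sum.inl) (v ∘ Sum.inl) + polar Q₂ (u ∘ Sum.inr) (v ∘ Sum.inr) := by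
  simp only [polar, sumForm]
  have h1 : (u + v) ∘ Sum.inl = u ∘ Sum.inl + v ∘ Sum.inl := rfl
  have h2 : (u + v) ∘ Sum.inr = u ∘ Sum.inr + v ∘ Sum.inr := rfl
  rw [h1, h2]
  ring

/-- The orthogonal sum of two quadratic forms. -/
noncomputable def sumQ : QuadraticForm F (ι ⊕ κ → F) :=
  ofFun (sumForm ⇑Q₁ ⇑Q₂)
    (fun c x => by
      have h1 : (c • x) ∘ Sum.inl = c • (x ∘ Sum.inl) := rfl
      have h2 : (c • x) ∘ Sum.inr = c • (x ∘ Sum.inr) := rfl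
      simp only [sumForm, h1, h2, QuadraticMap.map_smul, smul_eq_mul]
      ring)
    (fromBlocks (Matrix.of fun i j => polar ⇑Q₁ (Pi.single i 1) (Pi.single j 1)) 0 0
      (Matrix.of fun i j => polar ⇑Q₂ (Pi.single i 1) (Pi.single j 1)))
    (fun u v => by
      rw [polar_sum_fun, polar_eq_gram Q₁, polar_eq_gram Q₂, fromBlocks_mulVec]
      simp only [dotProduct, Fintype.sum_sum_type, Sum.elim_inl, Sum.elim_inr, Matrix.zero_mulVec,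
        add_zero, zero_add, Function.comp_apply, Pi.add_apply])

@[simp] theorem coe_sumQ : ⇑(sumQ Q₁ Q₂) = sumForm ⇑Q₁ ⇑Q₂ := rfl

theorem polar_sumQ (u v : ι ⊕ κ → F) :
    polar (sumQ Q₁ Q₂) u v = polar Q₁ (u ∘ Sum.inl) (v ∘ Sum.inl) + polar Q₂ (u ∘ Sum.inr) (v ∘ Sum.inr) :=
  polar_sum_fun Q₁ Q₂ u v

theorem sumQ_nondeg (h₁ : (polarBilin Q₁).Nondegenerate) (h₂ : (polarBilin Q₂).Nondegenerate) :
    (polarBilin (sumQ Q₁ Q₂)).Nondegenerate := by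
  have key : ∀ x : ι ⊕ κ → F, (∀ y, polar (sumQ Q₁ Q₂) x y = 0) → x = 0 := by
    intro x hx
    have hl : x ∘ Sum.inl = 0 := by
      apply h₁.1
      intro y
      have := hx (Sum.elim y 0)
      rw [polar_sumQ] at this
      have e1 : (Sum.elim y 0 : ι ⊕ κ → F) ∘ Sum.inl = y := rfl
      have e2 : (Sum.elim y 0 : ι ⊕ κ → F) ∘ Sum.inr = 0 := rfl
      rw [e1, e2, polar_zero_right, add_zero] at this
      exact this
    have hr : x ∘ Sum.inr = 0 := by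
      apply h₂.1
      intro y
      have := hx (Sum.elim 0 y)
      rw [polar_sumQ] at this
      have e1 : (Sum.elim 0 y : ι ⊕ κ → F) ∘ Sum.inl = 0 := rfl
      have e2 : (Sum.elim 0 y : ι ⊕ κ → F) ∘ Sum.inr = y := rfl
      rw [e1, e2, polar_zero_right, zero_add] at this
      exact this
    funext k
    rcases k with k | k
    · exact congrFun hl k
    · exact congrFun hr k
  constructor
  · intro x hx
    exact key x hx
  · intro y hy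
    apply key y
    intro x
    rw [polar_comm]
    exact hy x

/-- First embedding. -/
abbrev ext₁ (v : ι → F) : ι ⊕ κ → F := Sum.elim v 0

/-- Second embedding. -/
abbrev ext₂ (v : κ → F) : ι ⊕ κ → F := Sum.elim 0 v

theorem sumQ_ext₁ (v : ι → F) : sumQ Q₁ Q₂ (ext₁ v) = Q₁ v := by
  show Q₁ v + Q₂ 0 = _
  simp

theorem sumQ_ext₂ (v : κ → F) : sumQ Q₁ Q₂ (ext₂ v) = Q₂ v := by
  show Q₁ 0 + Q₂ v = _
  simp

theorem refl_ext₁ (v : ι → F) (x : ι ⊕ κ → F) :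
    refl (sumQ Q₁ Q₂) (ext₁ v) x = Sum.elim (refl Q₁ v (x ∘ Sum.inl)) (x ∘ Sum.inr) := by
  rw [refl_apply, sumQ_ext₁, polar_sumQ]
  funext k
  rcases k with k | k
  · have e1 : (ext₁ v : ι ⊕ κ → F) ∘ Sum.inl = v := rfl
    have e2 : (ext₁ v : ι ⊕ κ → F) ∘ Sum.inr = 0 := rfl
    rw [e1, e2, polar_zero_right, add_zero]
    simp
  · simp

theorem refl_ext₂ (v : κ → F) (x : ι ⊕ κ → F) :
    refl (sumQ Q₁ Q₂) (ext₂ v) x = Sum.elim (x ∘ Sum.inl) (refl Q₂ v (x ∘ Sum.inr)) := by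
  rw [refl_apply, sumQ_ext₂, polar_sumQ]
  funext k
  rcases k with k | k
  · simp
  · have e1 : (ext₂ v : ι ⊕ κ → F) ∘ Sum.inl = 0 := rfl
    have e2 : (ext₂ v : ι ⊕ κ → F) ∘ Sum.inr = v := rfl
    rw [e1, e2, polar_zero_right, zero_add]
    simp

theorem word_ext₁ (vs : List (ι → F)) (x : ι ⊕ κ → F) :
    ((vs.map ext₁).map (refl (sumQ Q₁ Q₂))).prod x = Sum.elim ((vs.map (refl Q₁)).prod (x ∘ Sum.inl)) (x ∘ Sum.inr) := by
  induction vs with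
  | nil =>
    funext k
    rcases k with k | k <;> simp
  | cons v vs ih =>
    simp only [List.map_cons, List.prod_cons, LinearEquiv.mul_apply]
    rw [ih, refl_ext₁]
    rfl

/-- The statement about `g₁` extended by the identity. -/
theorem block_one_mem_iff [Fintype F] (h₁ : (polarBilin Q₁).Nondegenerate) (h₂ : (polarBilin Q₂).Nondegenerate)
    (hc₁ : Fintype.card F ≠ 2 ∨ Fintype.card ι ≠ 4) (hc : Fintype.card F ≠ 2 ∨ Fintype.card (ι ⊕ κ) ≠ 4)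
    (g₁ : isometryGroup F ⇑Q₁) :
    (∃ g : isometryGroup F ⇑(sumQ Q₁ Q₂), g ∈ Omega F ⇑(sumQ Q₁ Q₂) ∧
      ((g : GL (ι ⊕ κ) F) : Matrix (ι ⊕ κ) (ι ⊕ κ) F) = fromBlocks ((g₁ : GL ι F) : Matrix ι ι F) 0 0 1) ↔
    g₁ ∈ Omega F ⇑Q₁ := by
  obtain ⟨vs, hvs, hg⟩ := exists_word Q₁ h₁ hc₁ g₁
  have hvs2 : ∀ v ∈ vs.map ext₁, (sumQ Q₁ Q₂) v ≠ 0 := by
    intro v hv
    obtain ⟨w, hw, rfl⟩ := List.mem_map.mp hv
    rw [sumQ_ext₁]
    exact hvs w hw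
  have hval := word_val Q₁ vs
  rw [← hg] at hval
  have hM : ∀ x, fromBlocks ((g₁ : GL ι F) : Matrix ι ι F) 0 0 1 *ᵥ x =
      ((vs.map ext₁).map (refl (sumQ Q₁ Q₂))).prod x := by
    intro x
    rw [word_ext₁, fromBlocks_mulVec, hval, word_mulVec]
    funext k
    rcases k with k | k <;> simp
  rw [exists_mem_Omega_iff_of_word (sumQ Q₁ Q₂) (sumQ_nondeg Q₁ Q₂ h₁ h₂) hc _ (vs.map ext₁) hvs2 hM,
    word_mem_Omega_iff Q₁ h₁ hc₁ g₁ vs hvs hval]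
  simp only [List.length_map, List.map_map]
  have : (fun v => (sumQ Q₁ Q₂) v) ∘ (ext₁ (κ := κ)) = fun v => Q₁ v := by
    funext v
    exact sumQ_ext₁ Q₁ Q₂ v
  rw [this]

/-- The coordinate swap on `Q ⊕ Q`. -/
noncomputable def swapIso (Q : QuadraticForm F (ι → F)) : (ι ⊕ ι → F) ≃ₗ[F] (ι ⊕ ι → F) :=
  LinearEquiv.funCongrLeft F F (Equiv.sumComm ι ι)

theorem swapIso_apply (Q : QuadraticForm F (ι → F)) (x : ι ⊕ ι → F) : swapIso Q x = x ∘ Sum.swap := rfl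

theorem swapIso_mem (Q : QuadraticForm F (ι → F)) : swapIso Q ∈ isoGroup (sumQ Q Q) := by
  intro x
  show Q ((x ∘ Sum.swap) ∘ Sum.inl) + Q ((x ∘ Sum.swap) ∘ Sum.inr) = Q (x ∘ Sum.inl) + Q (x ∘ Sum.inr)
  have e1 : (x ∘ Sum.swap) ∘ Sum.inl = x ∘ Sum.inr := rfl
  have e2 : (x ∘ Sum.swap) ∘ Sum.inr = x ∘ Sum.inl := rfl
  rw [e1, e2, add_comm]

/-- `diag(g, g)` lies in `Ω(Q ⊕ Q)`. -/
theorem block_diag_mem [Fintype F] (Q : QuadraticForm F (ι → F)) (hQ : (polarBilin Q).Nondegenerate)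
    (hc : Fintype.card F ≠ 2 ∨ Fintype.card (ι ⊕ ι) ≠ 4) (g : isometryGroup F ⇑Q) :
    ∃ x : isometryGroup F ⇑(sumQ Q Q), x ∈ Omega F ⇑(sumQ Q Q) ∧
      ((x : GL (ι ⊕ ι) F) : Matrix (ι ⊕ ι) (ι ⊕ ι) F) =
        fromBlocks ((g : GL ι F) : Matrix ι ι F) 0 0 ((g : GL ι F) : Matrix ι ι F) := by
  have hS := sumQ_nondeg Q Q hQ hQ
  let a : isometryGroup F ⇑(sumQ Q Q) := blockHom ⇑Q ⇑Q (g, 1)
  let b : isometryGroup F ⇑(sumQ Q Q) := blockHom ⇑Q ⇑Q (1, g)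
  let σ : isometryGroup F ⇑(sumQ Q Q) := (toIso (sumQ Q Q)).symm ⟨swapIso Q, swapIso_mem Q⟩
  have hσ : ∀ y, ((σ : GL (ι ⊕ ι) F) : Matrix (ι ⊕ ι) (ι ⊕ ι) F) *ᵥ y = y ∘ Sum.swap := fun y =>
    toIso_symm_mulVec (sumQ Q Q) ⟨swapIso Q, swapIso_mem Q⟩ y
  have hab : b * σ = σ * a := by
    apply Subtype.ext
    apply Units.ext
    apply mat_eq_of_mulVec
    intro y
    show (((b : GL (ι ⊕ ι) F) : Matrix (ι ⊕ ι) (ι ⊕ ι) F) * ((σ : GL (ι ⊕ ι) F) : Matrix (ι ⊕ ι) (ι ⊕ ι) F)) *ᵥ y =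
      (((σ : GL (ι ⊕ ι) F) : Matrix (ι ⊕ ι) (ι ⊕ ι) F) * ((a : GL (ι ⊕ ι) F) : Matrix (ι ⊕ ι) (ι ⊕ ι) F)) *ᵥ y
    rw [← Matrix.mulVec_mulVec, ← Matrix.mulVec_mulVec, hσ, hσ]
    have e1 : ((a : GL (ι ⊕ ι) F) : Matrix (ι ⊕ ι) (ι ⊕ ι) F) = fromBlocks ((g : GL ι F) : Matrix ι ι F) 0 0 1 := rfl
    have e2 : ((b : GL (ι ⊕ ι) F) : Matrix (ι ⊕ ι) (ι ⊕ ι) F) = fromBlocks 1 0 0 ((g : GL ι F) : Matrix ι ι F) := rfl
    rw [e1, e2, fromBlocks_mulVec, fromBlocks_mulVec]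
    funext k
    rcases k with k | k <;> simp [Function.comp_def]
  have hinv : invHom (sumQ Q Q) hS hc b = invHom (sumQ Q Q) hS hc a := by
    have h1 : b = σ * a * σ⁻¹ := by rw [← hab, mul_inv_cancel_right]
    rw [h1, map_mul, map_mul, map_inv, mul_comm (invHom _ _ _ σ), mul_assoc, mul_inv_cancel, mul_one]
  refine ⟨a * b, ?_, ?_⟩
  · rw [ker_invHom (sumQ Q Q) hS hc, MonoidHom.mem_ker, map_mul, hinv]
    generalize invHom (sumQ Q Q) hS hc a = z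
    have hz : ∀ z : Multiplicative (ZMod 2) × Multiplicative (ZMod 2), z * z = 1 := by decide
    exact hz z
  · show (((a : GL (ι ⊕ ι) F) : Matrix (ι ⊕ ι) (ι ⊕ ι) F) * ((b : GL (ι ⊕ ι) F) : Matrix (ι ⊕ ι) (ι ⊕ ι) F)) = _
    have e1 : ((a : GL (ι ⊕ ι) F) : Matrix (ι ⊕ ι) (ι ⊕ ι) F) = fromBlocks ((g : GL ι F) : Matrix ι ι F) 0 0 1 := rfl
    have e2 : ((b : GL (ι ⊕ ι) F) : Matrix (ι ⊕ ι) (ι ⊕ ι) F) = fromBlocks 1 0 0 ((g : GL ι F) : Matrix ι ι F) := rfl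
    rw [e1, e2, fromBlocks_multiply]
    simp

end Cfsg.Agent.Lib.Orth.Sum
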